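import Mathlib

set_option autoImplicit false
set_option maxRecDepth 100000

namespace Cfsg.Agent.Lib.Helper3.Tit.L3

noncomputable def fc0_0 (i : ℕ) : ℕ := (nat_lit 0x90001080000080001280000070001270000090000e70000060001070000080000c70000050000e80000070000a80000040000c80000060000880000030000a7000005000067000002000087000004000047000001000068000003000028000000000048000002000008000000000027000001000007)
noncomputable def sc0_0 (i : ℕ) : ℕ := (nat_lit 0x100000500000900000d00001100000e00000a000006000002000900010000ffff0000ffff0000ffff0000ffff0000ffff0000ffff0000ffff0000ffff0000ffff)
noncomputable def nc0_0 (i : ℕ) : ℕ := (nat_lit 0x9000008000007000006000005000004000003000002000001000000)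
noncomputable def cc0_0 (i : ℕ) : ℕ := (nat_lit 0x800001300000700001000000900001200000600000e00000500000c00000900001100000400000a00000800000f00000700000d00000300000800000600000b000002000006000001000004000005000009000000000002000004000007000003000005000000000000000002000003000001000001)

end Cfsg.Agent.Lib.Helper3.Tit.L3
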